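import Cfsg.Agent.Lib.PushUp.ConjFunctor

/-!
Chains of conjugations, and the translation between them and the Prelude's notions of control by
sets of conjugacy functors.
-/

set_option autoImplicit false

namespace CfsgLib.PushUp

open Subgroup

variable {G : Type*} [Group G]

/-- `g` is a product of steps starting from `T`, each allowed by `step` on the current subgroup. -/
inductive ConjChain (step : Subgroup G → G → Prop) : Subgroup G → G → Prop
  | refl (T : Subgroup G) : ConjChain step T 1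
  | cons {T : Subgroup G} {x g : G} (hx : step T x) (hg : ConjChain step (cmap x T) g) :
      ConjChain step T (g * x)

variable {step : Subgroup G → G → Prop}

theorem ConjChain.mono (hmono : ∀ {T T' : Subgroup G} {x : G}, T' ≤ T → step T x → step T' x)
    {T : Subgroup G} {g : G} (h : ConjChain step T g) : ∀ {T' : Subgroup G}, T' ≤ T → ConjChain step T' g := by
  induction h with
  | refl T => exact fun _ => .refl _
  | cons hx _ ih => exact fun hle => .cons (hmono hle hx) (ih (cmap_mono _ hle))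

theorem ConjChain.single {T : Subgroup G} {x : G} (hx : step T x) : ConjChain step T x := by
  simpa using ConjChain.cons hx (.refl _)

theorem ConjChain.trans {T : Subgroup G} {g : G} (h : ConjChain step T g) :
    ∀ {k : G}, ConjChain step (cmap g T) k → ConjChain step T (k * g) := by
  induction h with
  | refl T => intro k hk; simpa [cmap_one] using hk
  | @cons T x g hx _ ih =>
    intro k hk
    rw [cmap_mul] at hk
    simpa [mul_assoc] using ConjChain.cons hx (ih hk)

theorem ConjChain.symm (hinv : ∀ {T : Subgroup G} {x : G}, step T x → step (cmap x T) x⁻¹)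
    {T : Subgroup G} {g : G} (h : ConjChain step T g) : ConjChain step (cmap g T) g⁻¹ := by
  induction h with
  | refl T => simpa using ConjChain.refl _
  | @cons T x g hx _ ih =>
    rw [cmap_mul, mul_inv_rev]
    refine ih.trans ?_
    rw [cmap_inv_cmap]
    exact .single (hinv hx)

/-- `g` agrees on `T` with a chain. -/
def Realized (step : Subgroup G → G → Prop) (T : Subgroup G) (g : G) : Prop :=
  ∃ h : G, ConjChain step T h ∧ ∀ a ∈ T, h * a * h⁻¹ = g * a * g⁻¹

theorem cmap_congr {T : Subgroup G} {g h : G} (e : ∀ a ∈ T, h * a * h⁻¹ = g * a * g⁻¹) :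
    cmap h T = cmap g T := by
  apply le_antisymm <;> rintro _ ⟨a, ha, rfl⟩
  · exact ⟨a, ha, by simpa using (e a ha).symm⟩
  · exact ⟨a, ha, by simpa using e a ha⟩

theorem Realized.congr {T : Subgroup G} {g g' : G} (h : Realized step T g)
    (e : ∀ a ∈ T, g * a * g⁻¹ = g' * a * g'⁻¹) : Realized step T g' := by
  obtain ⟨k, hk, hk'⟩ := h
  exact ⟨k, hk, fun a ha => (hk' a ha).trans (e a ha)⟩

theorem isFusionRel_realized {S : Subgroup G}
    (hmono : ∀ {T T' : Subgroup G} {x : G}, T' ≤ T → step T x → step T' x)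
    (hinv : ∀ {T : Subgroup G} {x : G}, step T x → step (cmap x T) x⁻¹) :
    IsFusionRel S (Realized step) where
  mono := fun hle ⟨h, hh, e⟩ =>
    ⟨h, ConjChain.mono (step := step) (fun h1 h2 => hmono h1 h2) hh hle, fun a ha => e a (hle ha)⟩
  comp := by
    rintro T g k - - ⟨h1, hh1, e1⟩ ⟨h2, hh2, e2⟩
    rw [← cmap_congr e1] at hh2
    refine ⟨h2 * h1, hh1.trans hh2, fun a ha => ?_⟩
    calc h2 * h1 * a * (h2 * h1)⁻¹ = h2 * (h1 * a * h1⁻¹) * h2⁻¹ := by group
      _ = k * (g * a * g⁻¹) * k⁻¹ := by rw [e1 a ha, e2 _ (conj_mem_cmap ha)]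
      _ = k * g * a * (k * g)⁻¹ := by group
  inv := by
    rintro T g - - ⟨h, hh, e⟩
    refine ⟨h⁻¹, ?_, ?_⟩
    · rw [← cmap_congr e]; exact hh.symm hinv
    · intro b hb
      obtain ⟨a, ha, rfl⟩ := hb
      show h⁻¹ * (g * a * g⁻¹) * h⁻¹⁻¹ = g⁻¹ * (g * a * g⁻¹) * g⁻¹⁻¹
      rw [← e a ha]
      nth_rewrite 2 [e a ha]
      group

/-- A step of a chain for a set of functors, seen from the subgroup `P`. -/
def functorStep (𝓦 : Set (Subgroup G → Subgroup G)) (S : Subgroup G) (T : Subgroup G) (m : G) : Prop :=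
  T ≤ S ∧ cmap m T ≤ S ∧ ∃ W ∈ 𝓦, m ∈ normalizer ((W S : Subgroup G) : Set G)

theorem functorStep_mono {𝓦 : Set (Subgroup G → Subgroup G)} {S T T' : Subgroup G} {x : G}
    (hle : T' ≤ T) (h : functorStep 𝓦 S T x) : functorStep 𝓦 S T' x :=
  ⟨hle.trans h.1, (cmap_mono x hle).trans h.2.1, h.2.2⟩

theorem functorStep_inv {𝓦 : Set (Subgroup G → Subgroup G)} {S T : Subgroup G} {x : G}
    (h : functorStep 𝓦 S T x) : functorStep 𝓦 S (cmap x T) x⁻¹ := by
  refine ⟨h.2.1, by rw [cmap_inv_cmap]; exact h.1, ?_⟩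
  obtain ⟨W, hW, hx⟩ := h.2.2
  exact ⟨W, hW, inv_mem hx⟩

theorem chain_to_list {𝓦 : Set (Subgroup G → Subgroup G)} {S : Subgroup G} {T : Subgroup G} {h : G}
    (hc : ConjChain (functorStep 𝓦 S) T h) (hT : T ≤ S) :
    ∃ (n : ℕ) (c : Fin (n + 1) → G), c 0 = 1 ∧
      (∀ i : Fin n, ∃ W ∈ 𝓦,
        c i.succ * (c i.castSucc)⁻¹ ∈ normalizer ((W S : Subgroup G) : Set G)) ∧
      (∀ i : Fin (n + 1), cmap (c i) T ≤ S) ∧ c (Fin.last n) = h := by
  induction hc with
  | refl T => exact ⟨0, fun _ => 1, rfl, fun i => i.elim0, fun _ => by rwa [cmap_one], rfl⟩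
  | @cons T x g hx _ ih =>
    obtain ⟨n, c, hc0, hcs, hci, hcl⟩ := ih hx.2.1
    refine ⟨n + 1, Fin.cons 1 (fun i => c i * x), Fin.cons_zero _ _, ?_, ?_, ?_⟩
    · intro i
      cases i using Fin.cases with
      | zero =>
        obtain ⟨W, hW, hm⟩ := hx.2.2
        exact ⟨W, hW, by simpa [hc0] using hm⟩
      | succ j =>
        obtain ⟨W, hW, hm⟩ := hcs j
        refine ⟨W, hW, ?_⟩
        rw [← Fin.succ_castSucc, Fin.cons_succ, Fin.cons_succ]
        simpa [mul_assoc] using hm
    · intro i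
      cases i using Fin.cases with
      | zero => simpa [cmap_one] using hT
      | succ j => simpa [cmap_mul] using hci j
    · rw [← Fin.succ_last, Fin.cons_succ, hcl]

variable {p : ℕ} [Fact p.Prime] [Finite G]

/-- A single functor controls strong fusion exactly when its singleton does. -/
theorem family_singleton {W : Subgroup G → Subgroup G} {H : Subgroup G}
    (h : Cfsg.ControlsStrongFusionIn p W H) : Cfsg.FamilyControlsStrongFusionIn p {W} H := by
  obtain ⟨T, hT, hTp, hTi, hctrl⟩ := h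
  refine ⟨T, hT, hTp, hTi, fun A g hg hA hgA => ?_⟩
  obtain ⟨x, hx, hxa⟩ := hctrl A g hg hA hgA
  refine ⟨1, Fin.cons 1 (fun _ => x), rfl, fun i => ⟨W, rfl, ?_⟩, fun i => ?_, fun a ha => ?_⟩
  · rw [Subsingleton.elim i 0]; simpa using hx
  · cases i using Fin.cases with
    | zero => simpa using hA
    | succ j =>
      rw [Fin.cons_succ]
      rintro _ ⟨a, ha, rfl⟩
      show x * a * x⁻¹ ∈ T
      rw [hxa a ha]
      exact hgA ⟨a, ha, rfl⟩
  · have : Fin.last 1 = Fin.succ 0 := rfl
    rw [this, Fin.cons_succ]; exact hxa a ha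

theorem single_of_family {W : Subgroup G → Subgroup G} {H : Subgroup G}
    (h : Cfsg.FamilyControlsStrongFusionIn p {W} H) : Cfsg.ControlsStrongFusionIn p W H := by
  obtain ⟨T, hT, hTp, hTi, hctrl⟩ := h
  refine ⟨T, hT, hTp, hTi, fun A g hg hA hgA => ?_⟩
  obtain ⟨n, c, hc0, hcs, -, hcl⟩ := hctrl A g hg hA hgA
  refine ⟨c (Fin.last n), ?_, hcl⟩
  suffices ∀ i, c i ∈ H ⊓ normalizer ((W T : Subgroup G) : Set G) from this _
  intro i
  induction i using Fin.induction with
  | zero => rw [hc0]; exact one_mem _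
  | succ i ih =>
    obtain ⟨W', hW', hm⟩ := hcs i
    rw [Set.mem_singleton_iff] at hW'
    subst hW'
    simpa using mul_mem hm ih

/-- Local to global control of strong fusion for a set of functors. -/
theorem family_fusion_local_to_global (S : Sylow p G) (Good : Subgroup G → Prop)
    (hGood : ∀ V, Good V → IsFullyNormalized p S V)
    (hex : ∀ T : Subgroup G, T ≤ (S : Subgroup G) → ∃ x : G, Good (cmap x T))
    (𝓦 : Set (Subgroup G → Subgroup G)) (h𝓦 : ∀ W ∈ 𝓦, Cfsg.IsConjugacyFunctor p W)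
    (hloc : ∀ U : Subgroup G, Good U → U ≠ ⊥ →
      Cfsg.FamilyControlsStrongFusionIn p 𝓦 (normalizer (U : Set G))) :
    Cfsg.FamilyControlsStrongFusionIn p 𝓦 ⊤ := by
  set Rel := Realized (functorStep 𝓦 (S : Subgroup G)) with hRel
  have hF : IsFusionRel (S : Subgroup G) Rel := isFusionRel_realized functorStep_mono functorStep_inv
  have main : ∀ (T : Subgroup G) (g : G), T ≤ (S : Subgroup G) → cmap g T ≤ (S : Subgroup G) → Rel T g := by
    refine functor_induction S hF Good hGood hex
      (fun g => ⟨1, .refl _, fun a ha => by rw [Subgroup.mem_bot.mp ha]; group⟩) 𝓦 h𝓦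
      (fun W hW T m hT hmT hm => ⟨m, .single ⟨hT, hmT, W, hW, hm⟩, fun _ _ => rfl⟩) ?_
    intro U hU hUb hstep T n hT hnT hn
    set R := (S : Subgroup G) ⊓ normalizer (U : Set G) with hR
    obtain ⟨T', hT'N, hT'p, hT'i, hctrl⟩ := hloc U hU hUb
    obtain ⟨k, hk, hkT0⟩ := exists_cmap_eq hT'N hT'p hT'i (inf_le_right : R ≤ _)
      (S.2.to_le inf_le_left) (hGood U hU).2
    have hkT : cmap k T' = R := hkT0
    have hkT' : cmap k⁻¹ R = T' := by rw [← hkT, cmap_inv_cmap]
    have hA : ((cmap k⁻¹ T : Subgroup G) : Set G) ⊆ T' := hkT' ▸ cmap_mono k⁻¹ hT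
    obtain ⟨N, c, hc0, hcs, hci, hcl⟩ := hctrl ((cmap k⁻¹ T : Subgroup G) : Set G) (k⁻¹ * n * k)
      (mul_mem (mul_mem (inv_mem hk) hn) hk) hA (by
        rintro _ ⟨a, ha, rfl⟩
        have h1 : (k⁻¹ * n * k) * a * (k⁻¹ * n * k)⁻¹ ∈ cmap (k⁻¹ * n * k) (cmap k⁻¹ T) :=
          conj_mem_cmap ha
        rw [← cmap_mul, show k⁻¹ * n * k * k⁻¹ = k⁻¹ * n by group, cmap_mul] at h1
        exact hkT' ▸ cmap_mono k⁻¹ hnT h1)
    set d : Fin (N + 1) → G := fun i => k * c i * k⁻¹ with hd
    have hdi : ∀ i, cmap (d i) T ≤ R := by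
      intro i x hx
      obtain ⟨a, ha, rfl⟩ := hx
      rw [← hkT]
      have h1 : c i * (k⁻¹ * a * k) * (c i)⁻¹ ∈ T' :=
        hci i ⟨k⁻¹ * a * k, by have := SetLike.mem_coe.mp ha; simpa [mem_cmap, mul_assoc] using this, rfl⟩
      have h2 := conj_mem_cmap (g := k) h1
      simpa [hd, mul_assoc] using h2
    have hreal : ∀ i, Rel T (d i) := by
      intro i
      induction i using Fin.induction with
      | zero => exact ⟨1, .refl _, fun a _ => by simp [hd, hc0]⟩
      | succ i ih =>
        obtain ⟨W, hW, hm⟩ := hcs i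
        have hm' : d i.succ * (d i.castSucc)⁻¹ ∈ normalizer (U : Set G) ⊓
            normalizer ((W R : Subgroup G) : Set G) := by
          have he : d i.succ * (d i.castSucc)⁻¹ = k * (c i.succ * (c i.castSucc)⁻¹) * k⁻¹ := by
            simp only [hd]; group
          rw [he]
          refine ⟨Subgroup.mul_mem _ (Subgroup.mul_mem _ hk hm.1) (Subgroup.inv_mem _ hk), ?_⟩
          have h1 : cmap k (normalizer ((W T' : Subgroup G) : Set G)) =
              normalizer ((W R : Subgroup G) : Set G) := by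
            rw [cmap_normalizer,
              show cmap k (W T') = W (cmap k T') from ((h𝓦 W hW T' hT'p).2.2 k).symm, hkT]
          rw [← h1]
          exact conj_mem_cmap hm.2
        have hcm : cmap (d i.succ * (d i.castSucc)⁻¹) (cmap (d i.castSucc) T) = cmap (d i.succ) T := by
          rw [← cmap_mul]; congr 1; group
        have h3 := hstep W hW _ _ (hdi i.castSucc) (hcm ▸ hdi i.succ) hm'
        have h4 := hF.comp (hT.trans inf_le_left) ((hdi i.castSucc).trans inf_le_left) ih h3
        simpa using h4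
    refine (hreal (Fin.last N)).congr (fun a ha => ?_)
    have h1 := hcl (k⁻¹ * a * k) (by simp [mem_cmap, mul_assoc, ha])
    calc d (Fin.last N) * a * (d (Fin.last N))⁻¹
        = k * (c (Fin.last N) * (k⁻¹ * a * k) * (c (Fin.last N))⁻¹) * k⁻¹ := by simp only [hd]; group
      _ = n * a * n⁻¹ := by rw [h1]; group
  refine ⟨S, le_top, S.2, by rw [Subgroup.relIndex_top_right]; exact S.not_dvd_index,
    fun A g _ hA hgA => ?_⟩
  have hT : Subgroup.closure A ≤ (S : Subgroup G) := (Subgroup.closure_le _).mpr hA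
  have hgT : cmap g (Subgroup.closure A) ≤ (S : Subgroup G) := by
    rw [cmap, MonoidHom.map_closure, Subgroup.closure_le]; exact hgA
  obtain ⟨h, hh, he⟩ := main _ g hT hgT
  obtain ⟨N, c, hc0, hcs, hci, hcl⟩ := chain_to_list hh hT
  refine ⟨N, c, hc0, fun i => ?_, fun i => ?_, fun a ha => ?_⟩
  · obtain ⟨W, hW, hm⟩ := hcs i
    exact ⟨W, hW, trivial, hm⟩
  · rintro _ ⟨a, ha, rfl⟩
    exact hci i (conj_mem_cmap (Subgroup.subset_closure ha))
  · rw [hcl]; exact he a (Subgroup.subset_closure ha)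

/-- The focal subgroup theorem for a `p`-subgroup of index prime to `p` in `M`. -/
theorem inf_commutator_le {R M K : Subgroup G} (hRM : R ≤ M) (hR : IsPGroup p R)
    (hi : ¬ p ∣ R.relIndex M)
    (h : ∀ a ∈ R, ∀ m ∈ M, m * a * m⁻¹ ∈ R → a⁻¹ * (m * a * m⁻¹) ∈ K) : R ⊓ ⁅M, M⁆ ≤ K := by
  let P : Sylow p M := (hR.of_equiv (Subgroup.subgroupOfEquivOfLe hRM).symm).toSylow hi
  intro x hx
  have hx' : x ∈ M := hRM hx.1
  have h1 : (⟨x, hx'⟩ : M) ∈ _root_.commutator M ⊓ (P : Subgroup M) := by
    refine ⟨?_, hx.1⟩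
    have h2 : x ∈ (_root_.commutator M).map M.subtype := by
      rw [Subgroup.map_subtype_commutator]; exact hx.2
    obtain ⟨y, hy, hyx⟩ := h2
    have : y = ⟨x, hx'⟩ := Subtype.ext hyx
    exact this ▸ hy
  rw [Subgroup.commutator_inf_eq_focalSubgroup] at h1
  suffices Subgroup.focalSubgroup (P : Subgroup M) ≤ K.subgroupOf M from this h1
  rw [Subgroup.focalSubgroup_def, Subgroup.closure_le]
  rintro g ⟨hgP, a, ha, u, rfl⟩
  have ha' : (a : G) ∈ R := ha
  have hg' : (a : G) * u * (a : G)⁻¹ * (u : G)⁻¹ ∈ R := hgP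
  have hb : (u : G) * (a : G)⁻¹ * (u : G)⁻¹ ∈ R := by
    have := mul_mem (inv_mem ha') hg'
    simpa [mul_assoc] using this
  have := h _ (inv_mem ha') u u.2 hb
  show (a : G) * u * (a : G)⁻¹ * (u : G)⁻¹ ∈ K
  simpa [mul_assoc] using this

/-- The relation used for transfer: `g` moves the elements of `T` inside their cosets modulo `K`. -/
def FocalRel (K : Subgroup G) (T : Subgroup G) (g : G) : Prop :=
  ∀ a ∈ T, a⁻¹ * (g * a * g⁻¹) ∈ K

/-- Local to global control of transfer for a set of functors. -/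
theorem family_transfer_local_to_global (S : Sylow p G) (Good : Subgroup G → Prop)
    (hGood : ∀ V, Good V → IsFullyNormalized p S V)
    (hex : ∀ T : Subgroup G, T ≤ (S : Subgroup G) → ∃ x : G, Good (cmap x T))
    (𝓦 : Set (Subgroup G → Subgroup G)) (h𝓦 : ∀ W ∈ 𝓦, Cfsg.IsConjugacyFunctor p W)
    (hloc : ∀ U : Subgroup G, Good U → U ≠ ⊥ →
      Cfsg.FamilyControlsTransferIn p 𝓦 (normalizer (U : Set G))) :
    Cfsg.FamilyControlsTransferIn p 𝓦 ⊤ := by
  set K : Subgroup G := ⨆ W ∈ 𝓦, (S : Subgroup G) ⊓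
    ⁅(⊤ : Subgroup G) ⊓ normalizer ((W (S : Subgroup G) : Subgroup G) : Set G),
      (⊤ : Subgroup G) ⊓ normalizer ((W (S : Subgroup G) : Subgroup G) : Set G)⁆ with hK
  have hF : IsFusionRel (S : Subgroup G) (FocalRel K) :=
    { mono := fun hle h a ha => h a (hle ha)
      comp := by
        intro T g k _ _ h1 h2 a ha
        have := mul_mem (h1 a ha) (h2 _ (conj_mem_cmap ha))
        simpa [mul_assoc] using this
      inv := by
        rintro T g - - h b ⟨a, ha, rfl⟩
        have := inv_mem (h a ha)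
        simpa [mul_assoc] using this }
  have main : ∀ (T : Subgroup G) (g : G), T ≤ (S : Subgroup G) → cmap g T ≤ (S : Subgroup G) →
      FocalRel K T g := by
    refine functor_induction S hF Good hGood hex
      (fun g a ha => by rw [Subgroup.mem_bot.mp ha]; simp) 𝓦 h𝓦 ?_ ?_
    · intro W hW T m hT hmT hm a ha
      have hS := functor_normalizer_le (h𝓦 W hW) S.2
      apply le_iSup₂ (f := fun W (_ : W ∈ 𝓦) => (S : Subgroup G) ⊓
        ⁅(⊤ : Subgroup G) ⊓ normalizer ((W (S : Subgroup G) : Subgroup G) : Set G),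
          (⊤ : Subgroup G) ⊓ normalizer ((W (S : Subgroup G) : Subgroup G) : Set G)⁆) W hW
      refine ⟨Subgroup.mul_mem _ (Subgroup.inv_mem _ (hT ha)) (hmT (conj_mem_cmap ha)), ?_⟩
      have := Subgroup.commutator_mem_commutator
        (show a⁻¹ ∈ (⊤ : Subgroup G) ⊓ normalizer ((W (S : Subgroup G) : Subgroup G) : Set G) from
          ⟨trivial, Subgroup.inv_mem _ (hS (hT ha))⟩)
        (show m ∈ (⊤ : Subgroup G) ⊓ normalizer ((W (S : Subgroup G) : Subgroup G) : Set G) from
          ⟨trivial, hm⟩)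
      simpa [commutatorElement_def, mul_assoc] using this
    intro U hU hUb hstep T n hT hnT hn a ha
    set N := normalizer (U : Set G) with hN
    set R := (S : Subgroup G) ⊓ N with hR
    have hRp : IsPGroup p R := S.2.to_le inf_le_left
    obtain ⟨T', hT'N, hT'p, hT'i, hctrl⟩ := hloc U hU hUb
    obtain ⟨k, hk, hkT⟩ := exists_cmap_eq hT'N hT'p hT'i (inf_le_right : R ≤ _) hRp (hGood U hU).2
    have hkN : cmap k N = N := cmap_eq_of_mem_normalizer (Subgroup.le_normalizer hk)
    have hmem : a⁻¹ * (n * a * n⁻¹) ∈ R ⊓ ⁅N, N⁆ := by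
      refine ⟨Subgroup.mul_mem _ (Subgroup.inv_mem _ (hT ha)) (hnT (conj_mem_cmap ha)), ?_⟩
      have := Subgroup.commutator_mem_commutator (show a⁻¹ ∈ N from Subgroup.inv_mem _ (hT ha).2) hn
      simpa [commutatorElement_def, mul_assoc] using this
    suffices R ⊓ ⁅N, N⁆ ≤ K from this hmem
    have e := congrArg (cmap k) hctrl
    rw [cmap, Subgroup.map_inf _ _ _ (MulAut.conj k).injective, Subgroup.map_commutator] at e
    rw [show T'.map (MulAut.conj k).toMonoidHom = R from hkT,
      show N.map (MulAut.conj k).toMonoidHom = N from hkN] at e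
    rw [e, cmap, Subgroup.map_iSup, iSup_le_iff]
    intro W
    rw [Subgroup.map_iSup, iSup_le_iff]
    intro hW
    rw [Subgroup.map_inf _ _ _ (MulAut.conj k).injective, Subgroup.map_commutator,
      Subgroup.map_inf _ _ _ (MulAut.conj k).injective,
      show T'.map (MulAut.conj k).toMonoidHom = R from hkT,
      show N.map (MulAut.conj k).toMonoidHom = N from hkN,
      show (normalizer ((W T' : Subgroup G) : Set G)).map (MulAut.conj k).toMonoidHom =
        normalizer ((W R : Subgroup G) : Set G) from by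
          have h1 := cmap_normalizer k (W T')
          rw [show cmap k (W T') = W (cmap k T') from ((h𝓦 W hW T' hT'p).2.2 k).symm, hkT] at h1
          exact h1]
    have hRM : R ≤ N ⊓ normalizer ((W R : Subgroup G) : Set G) :=
      le_inf inf_le_right (functor_normalizer_le (h𝓦 W hW) hRp)
    refine inf_commutator_le hRM hRp (fun hd => (hGood U hU).2 (hd.trans ?_)) (fun b hb m hm hmb => ?_)
    · exact Dvd.intro _ (Subgroup.relIndex_mul_relIndex _ _ _ hRM inf_le_left)
    · refine hstep W hW (Subgroup.zpowers b) m (Subgroup.zpowers_le.mpr hb) ?_ hm b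
        (Subgroup.mem_zpowers b)
      rw [cmap, MonoidHom.map_zpowers, Subgroup.zpowers_le]
      exact hmb
  refine ⟨S, le_top, S.2, by rw [Subgroup.relIndex_top_right]; exact S.not_dvd_index, ?_⟩
  refine le_antisymm ?_ (iSup₂_le fun W _ => le_inf inf_le_left
    (inf_le_right.trans (Subgroup.commutator_mono le_top le_top)))
  refine inf_commutator_le le_top S.2 (by rw [Subgroup.relIndex_top_right]; exact S.not_dvd_index)
    (fun a ha m _ hma => ?_)
  refine main (Subgroup.zpowers a) m (Subgroup.zpowers_le.mpr ha) ?_ a (Subgroup.mem_zpowers a)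
  rw [cmap, MonoidHom.map_zpowers, Subgroup.zpowers_le]
  exact hma

end CfsgLib.PushUp
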